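import Cfsg.Agent.Lib.SmallSylow.Setting

set_option autoImplicit false
set_option linter.unusedSectionVars false
set_option linter.unusedVariables false
set_option linter.style.haveILetI false

/-! The Sylow 5-subgroup in the 21-point setting has order 5. -/

namespace Cfsg.Lib.N5

open MulAction Subgroup
open scoped Pointwise

variable {H Ω : Type*} [Group H] [Finite H] [MulAction H Ω] [Finite Ω] [FaithfulSMul H Ω]
  (S : Setting H Ω) [Fact (Nat.Prime 5)]

namespace Setting

theorem period_le (x : H) (b : Ω) :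
    period x b = Nat.card (MulAction.orbit (Subgroup.zpowers x) b) := by
  haveI := Fintype.ofFinite (MulAction.orbit (Subgroup.zpowers x) b)
  rw [Nat.card_eq_fintype_card, ← MulAction.minimalPeriod_eq_card]
  rfl

/-- Fixed points of a prime order element are congruent to 21. -/
theorem fixed_modEq (S : Setting H Ω) {q : ℕ} [hq : Fact q.Prime] {y : H} (hy : orderOf y = q) :
    (fixedBy Ω y).ncard % q = 21 % q := by
  have hP : IsPGroup q (Subgroup.zpowers y) :=
    IsPGroup.of_card (n := 1) (by rw [Nat.card_zpowers, pow_one, hy])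
  have h := hP.card_modEq_card_fixedPoints Ω
  have e : MulAction.fixedPoints (Subgroup.zpowers y) Ω = fixedBy Ω y := by
    ext b
    refine ⟨fun hb => hb ⟨y, Subgroup.mem_zpowers y⟩, fun hb => ?_⟩
    rintro ⟨g, hg⟩
    obtain ⟨n, rfl⟩ := Subgroup.mem_zpowers_iff.mp hg
    exact (MulAction.stabilizer H b).zpow_mem (show y ∈ MulAction.stabilizer H b from hb) n
  rw [S.card_eq, e, Nat.card_coe_set_eq] at h
  exact h.symm

theorem fixed_ne_univ {y : H} (hy : y ≠ 1) : (fixedBy Ω y).ncard ≠ Nat.card Ω := by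
  intro h
  have huniv : fixedBy Ω y = Set.univ :=
    Set.eq_of_subset_of_ncard_le (Set.subset_univ _) (by rw [Set.ncard_univ, h])
  exact hy (eq_of_smul_eq_smul fun b : Ω => by
    rw [one_smul]; exact (huniv ▸ Set.mem_univ b : b ∈ fixedBy Ω y))

theorem pow_five {a : Ω} {x : H} (hx : x ∈ S.P a) : x ^ 5 = 1 := by
  refine eq_of_smul_eq_smul fun b : Ω => ?_
  rw [one_smul]
  by_cases hb : b = a
  · subst hb; exact pow_fix 5 (S.fix_self hx)
  · have h := MulAction.pow_period_smul x b
    obtain ⟨k, hk⟩ := S.pelem hx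
    have hdvd : period x b ∣ 5 ^ k :=
      (MulAction.period_dvd_orderOf x b).trans (orderOf_dvd_of_pow_eq_one hk)
    obtain ⟨i, -, hi⟩ := (Nat.dvd_prime_pow (Fact.out : Nat.Prime 5)).mp hdvd
    have hle : period x b ≤ 5 := by
      have hsub : MulAction.orbit (Subgroup.zpowers x) b ⊆ MulAction.orbit (S.P a : Subgroup H) b := by
        rintro _ ⟨⟨g, hg⟩, rfl⟩
        exact ⟨⟨g, Subgroup.zpowers_le.mpr hx hg⟩, rfl⟩
      have := Set.ncard_le_ncard hsub
      rw [← Nat.card_coe_set_eq, ← Nat.card_coe_set_eq, S.orbit_card hb,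
        ← period_le] at this
      exact this
    have hd : period x b ∣ 5 := by
      rw [hi] at hle ⊢
      have : i ≤ 1 := by
        by_contra h'
        have : 5 ^ 2 ≤ 5 ^ i := Nat.pow_le_pow_right (by norm_num) (by omega)
        omega
      simpa using pow_dvd_pow 5 this
    obtain ⟨m, hm⟩ := hd
    rw [hm, pow_mul]
    exact pow_fix m h

theorem orderOf_five {a : Ω} {x : H} (hx : x ∈ S.P a) (h1 : x ≠ 1) : orderOf x = 5 :=
  orderOf_eq_prime (S.pow_five hx) h1

/-- The Sylow 5-subgroup has order 5. -/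
theorem card_P (a : Ω) : Nat.card (S.P a : Subgroup H) = 5 := by
  haveI : Nonempty Ω := ⟨a⟩
  obtain ⟨b, hb⟩ : ∃ b, b ≠ a := by
    by_contra h; push Not at h
    haveI : Subsingleton Ω := ⟨fun u v => (h u).trans (h v).symm⟩
    have := Finite.card_le_one_iff_subsingleton.mpr ‹Subsingleton Ω›
    rw [S.card_eq] at this; omega
  by_contra hne
  have hidx : (MulAction.stabilizer (S.P a : Subgroup H) b).index = 5 := by
    rw [MulAction.index_stabilizer, ← Nat.card_coe_set_eq]; exact S.orbit_card hb
  have hstab : MulAction.stabilizer (S.P a : Subgroup H) b ≠ ⊥ := by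
    intro h
    rw [h, Subgroup.index_bot] at hidx
    exact hne hidx
  obtain ⟨⟨⟨x, hxP⟩, hxb⟩, hx1'⟩ := Subgroup.ne_bot_iff_exists_ne_one.mp hstab
  have hx1 : x ≠ 1 := fun h => hx1' (Subtype.ext (Subtype.ext h))
  have hxb' : x • b = b := hxb
  have ho := S.orderOf_five hxP hx1
  set F : Set Ω := fixedBy Ω x with hF
  have haF : a ∈ F := S.fix_self hxP
  have hbF : b ∈ F := hxb'
  -- x lies in all Sylow subgroups of its fixed points
  have hxmem : ∀ f ∈ F, x ∈ S.P f := fun f hf => S.mem_of_fix ⟨1, by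
    rw [pow_one, ← ho]; exact pow_orderOf_eq_one x⟩ hf
  have hF5 : F.ncard % 5 = 1 := by rw [hF, S.fixed_modEq ho]
  have hF21 : F.ncard ≠ 21 := S.card_eq ▸ fixed_ne_univ hx1
  have hFle : F.ncard ≤ 21 := S.card_eq ▸ Set.ncard_le_card F
  have hF2 : 2 ≤ F.ncard := by
    refine le_trans (le_of_eq (Set.ncard_pair hb.symm).symm) (Set.ncard_le_ncard ?_)
    rintro u (rfl | rfl)
    · exact haF
    · exact hbF
  have hF16 : F.ncard ≠ 16 := fun h => S.no_cycle (q := 5) (by norm_num) (by norm_num) ho
    (by rw [← hF, h])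
  -- the centraliser of x is transitive on F
  set C := Subgroup.centralizer ({x} : Set H) with hC
  have hPC : ∀ f ∈ F, (S.P f : Subgroup H) ≤ C := fun f hf p hp => by
    rw [hC, Subgroup.mem_centralizer_singleton_iff]
    exact S.comm hp (hxmem f hf)
  have hCF : ∀ c ∈ C, ∀ f : Ω, f ∈ F ↔ c • f ∈ F := by
    intro c hc f
    rw [Subgroup.mem_centralizer_singleton_iff] at hc
    show x • f = f ↔ x • c • f = c • f
    rw [smul_smul, ← hc, mul_smul, smul_left_cancel_iff]
  have htrans : ∀ f ∈ F, ∀ g ∈ F, ∃ c ∈ C, c • f = g := by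
    intro f hf g hg
    obtain ⟨c, hc⟩ := exists_smul_eq C ((S.P f).subtype (hPC f hf)) ((S.P g).subtype (hPC g hg))
    refine ⟨c, c.2, S.inj ?_⟩
    rw [S.conj]
    rw [Sylow.smul_subtype] at hc
    exact Sylow.subtype_injective hc
  -- commutators of such Sylow subgroups fix the moved points
  have hcomm : ∀ f ∈ F, ∀ g ∈ F, ∀ p ∈ S.P f, ∀ r ∈ S.P g, ∀ m, m ∉ F →
      (p * r * p⁻¹ * r⁻¹) • m = m := by
    intro f hf g hg p hp r hr m hm
    have hpx : p * x = x * p := S.comm hp (hxmem f hf)
    have hrx : r * x = x * r := S.comm hr (hxmem g hg)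
    have horb : ∀ e ∈ F, ∀ s ∈ S.P e, ∃ i : ℤ, s • m = x ^ i • m := by
      intro e he s hs
      have hme : m ≠ e := fun h => hm (h ▸ he)
      have hsub : MulAction.orbit (Subgroup.zpowers x) m ⊆ MulAction.orbit (S.P e : Subgroup H) m := by
        rintro _ ⟨⟨y, hy⟩, rfl⟩
        exact ⟨⟨y, Subgroup.zpowers_le.mpr (hxmem e he) hy⟩, rfl⟩
      have heq : MulAction.orbit (Subgroup.zpowers x) m = MulAction.orbit (S.P e : Subgroup H) m := by
        refine Set.eq_of_subset_of_ncard_le hsub ?_
        rw [← Nat.card_coe_set_eq, ← Nat.card_coe_set_eq, S.orbit_card hme,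
          ← period_le]
        have hd : period x m ∣ 5 := ho ▸ MulAction.period_dvd_orderOf x m
        rcases (Nat.dvd_prime (by norm_num)).mp hd with h1 | h5
        · exfalso
          have := MulAction.pow_period_smul x m
          rw [h1, pow_one] at this
          exact hm this
        · exact h5.ge
      obtain ⟨⟨y, hy⟩, hy'⟩ :
          s • m ∈ MulAction.orbit (Subgroup.zpowers x) m := heq ▸ ⟨⟨s, hs⟩, rfl⟩
      obtain ⟨i, rfl⟩ := Subgroup.mem_zpowers_iff.mp hy
      exact ⟨i, hy'.symm⟩
    obtain ⟨i, hi⟩ := horb f hf p hp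
    obtain ⟨j, hj⟩ := horb g hg r hr
    have e : (p * r) • m = (r * p) • m := by
      rw [mul_smul, mul_smul, hj, hi, smul_smul, smul_smul,
        (Commute.zpow_right hpx j).eq, (Commute.zpow_right hrx i).eq, mul_smul, mul_smul,
        hi, hj, ← mul_smul, ← mul_smul, ← zpow_add, ← zpow_add, add_comm]
    have e2 : (r * p)⁻¹ • (p * r) • m = m := by rw [e, inv_smul_smul]
    calc (p * r * p⁻¹ * r⁻¹) • m = (p * r) • (r * p)⁻¹ • m := by
          rw [← mul_smul]; congr 1; group
      _ = m := by
          have e3 : (r * p)⁻¹ • m = (p * r)⁻¹ • m := by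
            obtain ⟨i', hi'⟩ := horb f hf p⁻¹ (inv_mem hp)
            obtain ⟨j', hj'⟩ := horb g hg r⁻¹ (inv_mem hr)
            rw [mul_inv_rev, mul_inv_rev, mul_smul, mul_smul, hj', hi', smul_smul, smul_smul,
              ((Commute.inv_left hpx).zpow_right j').eq, ((Commute.inv_left hrx).zpow_right i').eq,
              mul_smul, mul_smul, hi', hj', ← mul_smul, ← mul_smul, ← zpow_add, ← zpow_add,
              add_comm]
          rw [e3, smul_inv_smul]
  have hcases : F.ncard = 6 ∨ F.ncard = 11 := by omega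
  rcases hcases with h6 | h11
  · -- six fixed points
    set K : Subgroup H := fixingSubgroup H Fᶜ with hK
    have hK5 : ¬ 5 ∣ Nat.card K := by
      intro h
      obtain ⟨⟨y, hyK⟩, hy⟩ := exists_prime_orderOf_dvd_card' 5 h
      have hy' : orderOf y = 5 := by rw [← hy, ← orderOf_injective K.subtype Subtype.coe_injective]; rfl
      have hsub : Fᶜ ⊆ fixedBy Ω y := fun m hm => (mem_fixingSubgroup_iff H).mp hyK m hm
      have h15 := Set.ncard_le_ncard hsub
      have hc := Set.ncard_add_ncard_compl F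
      rw [S.card_eq] at hc
      have hy5 := S.fixed_modEq hy'
      have hy21 : (fixedBy Ω y).ncard ≠ 21 := S.card_eq ▸ fixed_ne_univ (fun h => by
        rw [h, orderOf_one] at hy'; norm_num at hy')
      have hyle : (fixedBy Ω y).ncard ≤ 21 := S.card_eq ▸ Set.ncard_le_card _
      exact S.no_cycle (q := 5) (by norm_num) (by norm_num) hy' (by omega)
    -- conjugation by P a preserves K
    have hnorm : ∀ p ∈ S.P a, ∀ k ∈ K, p * k * p⁻¹ ∈ K := by
      intro p hp k hk
      rw [hK, mem_fixingSubgroup_iff] at hk ⊢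
      intro m hm
      have : p⁻¹ • m ∈ Fᶜ := fun h => hm ((hCF _ (C.inv_mem (hPC a haF hp)) m).mpr h)
      rw [mul_smul, mul_smul, hk _ this, smul_inv_smul]
    have horbit : ∀ f ∈ F, f ≠ a → MulAction.orbit (S.P a : Subgroup H) f = F \ {a} := by
      intro f hf hfa
      refine Set.eq_of_subset_of_ncard_le ?_ ?_
      · rintro _ ⟨⟨p, hp⟩, rfl⟩
        refine ⟨(hCF p (hPC a haF hp) f).mp hf, fun h => hfa ?_⟩
        exact (inv_smul_smul p f).symm.trans ((congrArg (p⁻¹ • ·) h).trans (S.fix_self (inv_mem hp)))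
      · rw [← Nat.card_coe_set_eq, ← Nat.card_coe_set_eq, S.orbit_card hfa, Nat.card_coe_set_eq,
          Set.ncard_sdiff_singleton_of_mem haF, h6]
    have hK0 : ∀ k ∈ K, k • a = a → k = 1 := by
      intro k hk hka
      have hcentral : ∀ p ∈ S.P a, k * p = p * k := by
        intro p hp
        have hmem : k * p * k⁻¹ * p⁻¹ ∈ S.P a :=
          mul_mem ((Subgroup.mem_normalizer_iff.mp (S.mem_stab_iff.mp hka) p).mp hp) (inv_mem hp)
        have hmemK : k * p * k⁻¹ * p⁻¹ ∈ K := by
          have := K.mul_mem hk (hnorm p hp k⁻¹ (K.inv_mem hk))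
          convert this using 1; group
        have h1 : k * p * k⁻¹ * p⁻¹ = 1 := by
          by_contra h1
          have := S.orderOf_five hmem h1
          exact hK5 (this ▸ Subgroup.orderOf_dvd_natCard K hmemK)
        calc k * p = k * p * k⁻¹ * p⁻¹ * (p * k) := by group
          _ = p * k := by rw [h1, one_mul]
      have hkb : k • b ∈ F := by
        by_contra h
        have := (mem_fixingSubgroup_iff H).mp hk _ h
        rw [smul_left_cancel_iff] at this
        exact h (this.symm ▸ hbF)
      have hkba : k • b ≠ a := fun h => hb (smul_left_cancel k (h.trans hka.symm))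
      obtain ⟨⟨p, hp⟩, hpb⟩ : k • b ∈ MulAction.orbit (S.P a : Subgroup H) b := by
        rw [horbit b hbF hb]; exact ⟨hkb, hkba⟩
      have hpb' : k • b = p • b := hpb.symm
      have hkn : ∀ n : ℕ, k ^ n • b = p ^ n • b := by
        intro n
        induction n with
        | zero => simp
        | succ n ih =>
          rw [pow_succ', mul_smul, ih, smul_smul, hcentral _ (pow_mem hp n), mul_smul, hpb',
            smul_smul, ← pow_succ]
      have hk5b : k ^ 5 • b = b := by rw [hkn, S.pow_five hp, one_smul]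
      have hk5 : k ^ 5 = 1 := by
        refine eq_of_smul_eq_smul fun u : Ω => ?_
        rw [one_smul]
        by_cases huF : u ∈ F
        · by_cases hua : u = a
          · rw [hua]; exact pow_fix 5 hka
          · obtain ⟨⟨r, hr⟩, rfl⟩ : u ∈ MulAction.orbit (S.P a : Subgroup H) b := by
              rw [horbit b hbF hb]; exact ⟨huF, hua⟩
            show k ^ 5 • r • b = r • b
            rw [smul_smul, (Commute.pow_left (hcentral r hr) 5).eq, mul_smul, hk5b]
        · exact (mem_fixingSubgroup_iff H).mp (pow_mem hk 5) u huF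
      by_contra hk1
      exact hK5 (orderOf_eq_prime hk5 hk1 ▸ Subgroup.orderOf_dvd_natCard K hk)
    -- K is not trivial
    have hKne : ∃ k ∈ K, k ≠ 1 := by
      by_contra h
      push Not at h
      refine hb ((S.fix_iff a b).mp fun p hp => ?_)
      rw [S.mem_stab_iff]
      refine (Subgroup.mem_normalizer_iff (H := (S.P b : Subgroup H))).mpr ?_
      have key : ∀ q ∈ S.P a, ∀ r ∈ S.P b, q * r * q⁻¹ = r := fun q hq r hr =>
        mul_inv_eq_one.mp (h _ (by
          rw [hK, mem_fixingSubgroup_iff]; exact fun m hm => hcomm a haF b hbF q hq r hr m hm))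
      intro r
      refine ⟨fun hr => ?_, fun hr => ?_⟩
      · rw [key p hp r hr]; exact hr
      · have := key p⁻¹ (inv_mem hp) _ hr
        have e : r = p * r * p⁻¹ := by
          calc r = p⁻¹ * (p * r * p⁻¹) * p⁻¹⁻¹ := by group
            _ = _ := this
        rw [e]; exact hr
    have hKF : ∀ k ∈ K, k • a ∈ F := by
      intro k hk
      by_contra h
      have := (mem_fixingSubgroup_iff H).mp hk _ h
      rw [smul_left_cancel_iff] at this
      exact h (this.symm ▸ haF)
    have hinjK : Function.Injective fun k : K => (⟨(k : H) • a, hKF k k.2⟩ : F) := by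
      intro k l h
      have h' : (k : H) • a = (l : H) • a := congrArg Subtype.val h
      have := hK0 _ (K.mul_mem (K.inv_mem l.2) k.2) (by rw [mul_smul, h', inv_smul_smul])
      exact Subtype.ext (inv_mul_eq_one.mp this).symm
    have hsurjK : Function.Surjective fun k : K => (⟨(k : H) • a, hKF k k.2⟩ : F) := by
      rintro ⟨f, hf⟩
      by_cases hfa : f = a
      · exact ⟨1, Subtype.ext (by simp [hfa])⟩
      · obtain ⟨k, hk, hk1⟩ := hKne
        obtain ⟨⟨p, hp⟩, hpk⟩ : f ∈ MulAction.orbit (S.P a : Subgroup H) (k • a) := by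
          rw [horbit _ (hKF k hk) (fun h => hk1 (hK0 k hk h))]; exact ⟨hf, hfa⟩
        refine ⟨⟨_, hnorm p hp k hk⟩, Subtype.ext ?_⟩
        show (p * k * p⁻¹) • a = f
        rw [mul_smul, mul_smul, S.fix_self (inv_mem hp)]; exact hpk
    have hcardK : Nat.card K = 6 := by
      rw [Nat.card_eq_of_bijective _ ⟨hinjK, hsurjK⟩, Nat.card_coe_set_eq, h6]
    haveI : Fact (Nat.Prime 2) := ⟨Nat.prime_two⟩
    haveI : Fact (Nat.Prime 3) := ⟨Nat.prime_three⟩
    obtain ⟨⟨k2, hk2⟩, ho2⟩ := exists_prime_orderOf_dvd_card' (G := K) 2 (by omega)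
    obtain ⟨⟨k3, hk3⟩, ho3⟩ := exists_prime_orderOf_dvd_card' (G := K) 3 (by omega)
    rw [← orderOf_injective K.subtype Subtype.coe_injective] at ho2 ho3
    change orderOf k2 = 2 at ho2
    change orderOf k3 = 3 at ho3
    obtain ⟨⟨p, hp⟩, hpk⟩ : k3 • a ∈ MulAction.orbit (S.P a : Subgroup H) (k2 • a) := by
      rw [horbit _ (hKF k2 hk2) (fun h => by rw [hK0 k2 hk2 h, orderOf_one] at ho2; omega)]
      exact ⟨hKF k3 hk3, fun h => by rw [hK0 k3 hk3 h, orderOf_one] at ho3; omega⟩
    have he : p * k2 * p⁻¹ = k3 := by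
      have h1 : (k3⁻¹ * (p * k2 * p⁻¹)) • a = a := by
        rw [mul_smul, mul_smul, mul_smul, S.fix_self (inv_mem hp),
          show p • k2 • a = k3 • a from hpk, inv_smul_smul]
      exact (inv_mul_eq_one.mp (hK0 _ (K.mul_mem (K.inv_mem hk3) (hnorm p hp k2 hk2)) h1)).symm
    have : orderOf (p * k2 * p⁻¹) = orderOf k2 := by
      rw [← MulAut.conj_apply, MulEquiv.orderOf_eq]
    rw [he, ho2, ho3] at this
    omega
  · -- eleven fixed points
    haveI : Fact (Nat.Prime 11) := ⟨by norm_num⟩
    let T : SubMulAction C Ω :=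
      { carrier := F
        smul_mem' := fun c f hf => (hCF c c.2 f).mp hf }
    have horb : MulAction.orbit C (⟨a, haF⟩ : T) = Set.univ := by
      refine Set.eq_univ_of_forall fun u => ?_
      obtain ⟨c, hc, hca⟩ := htrans a haF u.1 u.2
      exact ⟨⟨c, hc⟩, Subtype.ext hca⟩
    have h11C : 11 ∣ Nat.card C := by
      have := Subgroup.index_dvd_card (MulAction.stabilizer C (⟨a, haF⟩ : T))
      rw [MulAction.index_stabilizer, horb, Set.ncard_univ] at this
      rwa [show Nat.card T = 11 from (Nat.card_coe_set_eq F).trans h11] at this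
    obtain ⟨⟨y, hyC⟩, hy⟩ := exists_prime_orderOf_dvd_card' 11 h11C
    rw [← orderOf_injective C.subtype Subtype.coe_injective] at hy
    change orderOf y = 11 at hy
    -- y fixes every point outside F
    have hsub : Fᶜ ⊆ fixedBy Ω y := by
      intro m hm
      have hd : period y m ∣ 11 := hy ▸ MulAction.period_dvd_orderOf y m
      rcases (Nat.dvd_prime (by norm_num)).mp hd with h1 | h11'
      · have := MulAction.pow_period_smul y m
        rwa [h1, pow_one] at this
      · exfalso
        have hs : MulAction.orbit (Subgroup.zpowers y) m ⊆ Fᶜ := by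
          rintro _ ⟨⟨g, hg⟩, rfl⟩
          exact fun h => hm ((hCF g (Subgroup.zpowers_le.mpr hyC hg) m).mpr h)
        have := Set.ncard_le_ncard hs
        have hc := Set.ncard_add_ncard_compl F
        rw [S.card_eq] at hc
        rw [← Nat.card_coe_set_eq, ← period_le] at this
        omega
    have h10 := Set.ncard_le_ncard hsub
    have hc := Set.ncard_add_ncard_compl F
    rw [S.card_eq] at hc
    have hy11 := S.fixed_modEq hy
    have hy21 : (fixedBy Ω y).ncard ≠ 21 := S.card_eq ▸ fixed_ne_univ (fun h => by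
      rw [h, orderOf_one] at hy; norm_num at hy)
    have hyle : (fixedBy Ω y).ncard ≤ 21 := S.card_eq ▸ Set.ncard_le_card _
    exact S.no_cycle (q := 11) (by norm_num) (by norm_num) hy (by omega)

end Setting

end Cfsg.Lib.N5
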