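import Cfsg.Agent.Lib.SmallSylow.Big

set_option autoImplicit false
set_option linter.unusedSectionVars false
set_option linter.unusedVariables false
set_option linter.style.haveILetI false

/-! The case of a Sylow 5-subgroup of order 5 is impossible (transfer). -/

namespace Cfsg.Lib.N5

open MulAction Subgroup
open scoped Pointwise

theorem unit_pow_four : ∀ u : (ZMod 5)ˣ, u ^ 4 = 1 := by decide

theorem unit_sq : ∀ u : (ZMod 5)ˣ, u ^ 2 = 1 → u = 1 ∨ u = -1 := by decide

theorem unit_neg_one_ne : (-1 : (ZMod 5)ˣ) ≠ 1 := by decide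

variable {H Ω : Type*} [Group H] [Finite H] [MulAction H Ω] [Finite Ω] [FaithfulSMul H Ω]
  (S : Setting H Ω) [Fact (Nat.Prime 5)]

namespace Setting

theorem no_seven (S : Setting H Ω) {a : Ω} {r : H}
    (hr : orderOf r = 7) (hc : ∀ p ∈ S.P a, p * r = r * p) (hra : r • a = a) : False := by
  haveI : Fact (Nat.Prime 7) := ⟨by norm_num⟩
  set F := fixedBy Ω r
  have h7 : F.ncard % 7 = 21 % 7 := S.fixed_modEq hr
  have h21 : F.ncard ≠ 21 := S.card_eq ▸ fixed_ne_univ (fun h => by
    rw [h, orderOf_one] at hr; norm_num at hr)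
  have hle : F.ncard ≤ 21 := S.card_eq ▸ Set.ncard_le_card _
  have hinv : ∀ p : (S.P a : Subgroup H), ∀ b ∈ F, (p : H) • b ∈ F := by
    intro p b hb
    show r • (p : H) • b = (p : H) • b
    rw [smul_smul, ← hc p p.2, mul_smul]
    exact congrArg ((p : H) • ·) hb
  let T : SubMulAction (S.P a : Subgroup H) Ω := { carrier := F, smul_mem' := fun p b hb => hinv p b hb }
  have hmod := (S.P a).2.card_modEq_card_fixedPoints T
  have hfix : Nat.card (MulAction.fixedPoints (S.P a : Subgroup H) T) = 1 := by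
    rw [Nat.card_eq_one_iff_unique]
    refine ⟨⟨fun u v => Subtype.ext (Subtype.ext ?_)⟩,
      ⟨⟨⟨a, hra⟩, fun x => Subtype.ext (S.fix_self x.2)⟩⟩⟩
    rw [(S.fix_iff a u.1.1).mp fun x hx => congrArg Subtype.val (u.2 ⟨x, hx⟩),
      (S.fix_iff a v.1.1).mp fun x hx => congrArg Subtype.val (v.2 ⟨x, hx⟩)]
  rw [hfix, show Nat.card T = F.ncard from Nat.card_coe_set_eq F] at hmod
  unfold Nat.ModEq at hmod
  omega

/-- The normaliser of `P a` is not the centraliser. -/
theorem exists_not_central (S : Setting H Ω) (a : Ω) :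
    ∃ n : H, n • a = a ∧ ∃ p ∈ S.P a, n * p ≠ p * n := by
  haveI : Fact (Nat.Prime 7) := ⟨by norm_num⟩
  by_contra h
  push Not at h
  have hP : Subgroup.normalizer (S.P a : Set H) ≤ Subgroup.centralizer (S.P a : Set H) := by
    intro n hn
    rw [Subgroup.mem_centralizer_iff]
    exact fun p hp => (h n (S.mem_stab_iff.mpr hn) p hp).symm
  set K := (MonoidHom.transferSylow (S.P a) hP).ker with hK
  have hcompl := MonoidHom.ker_transferSylow_isComplement' (S.P a) hP
  have hK5 : ¬ 5 ∣ Nat.card K := MonoidHom.not_dvd_card_ker_transferSylow (S.P a) hP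
  haveI := S.prim
  haveI : IsPretransitive H Ω := S.trans
  -- K is transitive
  have hne : MulAction.fixedPoints K Ω ≠ Set.univ := by
    intro hu
    have hbot : K = ⊥ := by
      rw [Subgroup.eq_bot_iff_forall]
      intro k hk
      exact eq_of_smul_eq_smul fun b : Ω => by
        rw [one_smul]; exact (hu ▸ Set.mem_univ b : b ∈ MulAction.fixedPoints K Ω) ⟨k, hk⟩
    have htop : (S.P a : Subgroup H) = ⊤ := by
      have := hcompl
      rw [← hK, hbot, Subgroup.isComplement'_bot_left] at this
      exact this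
    obtain ⟨b, hb⟩ : ∃ b : Ω, b ≠ a := by
      by_contra h; push Not at h
      haveI : Subsingleton Ω := ⟨fun u v => (h u).trans (h v).symm⟩
      have := Finite.card_le_one_iff_subsingleton.mpr ‹Subsingleton Ω›
      rw [S.card_eq] at this; omega
    obtain ⟨g, hg⟩ := exists_smul_eq H a b
    exact hb (hg ▸ S.fix_self (htop ▸ Subgroup.mem_top g : g ∈ (S.P a : Subgroup H)))
  haveI : IsPretransitive K Ω := IsQuasiPreprimitive.isPretransitive_of_normal hne
  have h21 : 21 ∣ Nat.card K := by
    rw [← S.card_eq, ← MulAction.index_stabilizer_of_transitive K a]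
    exact Subgroup.index_dvd_card _
  -- a Sylow 7-subgroup of K normalised by P a
  letI : MulAction (S.P a : Subgroup H) (Sylow 7 K) :=
    MulAction.compHom _ ((MulAut.conjNormal : H →* MulAut K).comp (S.P a : Subgroup H).subtype)
  have hnd : ¬ 5 ∣ Nat.card (Sylow 7 K) := fun hd =>
    hK5 (hd.trans ((Sylow.card_dvd_index (default : Sylow 7 K)).trans (Subgroup.index_dvd_card _)))
  obtain ⟨R, hR⟩ := (S.P a).2.nonempty_fixed_point_of_prime_not_dvd_card (Sylow 7 K) hnd
  set R' : Subgroup H := (R : Subgroup K).map K.subtype with hR'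
  have hnorm : (S.P a : Subgroup H) ≤ Subgroup.normalizer (R' : Set H) := by
    intro p hp
    have hRp : ((MulAut.conjNormal p : MulAut K) • R : Sylow 7 K) = R := hR ⟨p, hp⟩
    have hmap : ∀ q : H, ((MulAut.conjNormal q : MulAut K) • R : Sylow 7 K) = R →
        ∀ r ∈ R', q * r * q⁻¹ ∈ R' := by
      intro q hq r hr
      obtain ⟨⟨s, hsK⟩, hs, rfl⟩ := hr
      refine ⟨MulAut.conjNormal q ⟨s, hsK⟩, ?_, ?_⟩
      · have : MulAut.conjNormal q ⟨s, hsK⟩ ∈
            ((MulAut.conjNormal q : MulAut K) • R : Sylow 7 K) :=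
          Subgroup.smul_mem_pointwise_smul _ _ _ hs
        rwa [hq] at this
      · simp [MulAut.conjNormal_apply]
    refine Subgroup.mem_normalizer_iff.mpr fun r => ⟨hmap p hRp r, fun hr => ?_⟩
    have hRp' : ((MulAut.conjNormal p⁻¹ : MulAut K) • R : Sylow 7 K) = R :=
      hR ⟨p⁻¹, inv_mem hp⟩
    have := hmap p⁻¹ hRp' _ hr
    simpa [mul_assoc] using this
  have hRp : IsPGroup 7 R' := R.2.map K.subtype
  -- elements of R' fixing a are trivial
  have hno : ∀ r ∈ R', r • a = a → r = 1 := by
    intro r hr hra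
    by_contra hr1
    obtain ⟨k, hk⟩ : ∃ k, orderOf r = 7 ^ k := by
      obtain ⟨k, hk⟩ := hRp ⟨r, hr⟩
      obtain ⟨j, -, hj⟩ := (Nat.dvd_prime_pow (Fact.out : Nat.Prime 7)).mp
        (orderOf_dvd_of_pow_eq_one (show r ^ 7 ^ k = 1 by simpa using congrArg Subtype.val hk))
      exact ⟨j, hj⟩
    obtain ⟨j, rfl⟩ : ∃ j, k = j + 1 := ⟨k - 1, by
      rcases k with _ | k
      · rw [pow_zero, orderOf_eq_one_iff] at hk; exact absurd hk hr1
      · omega⟩
    have ho : orderOf (r ^ 7 ^ j) = 7 := by
      rw [orderOf_pow_of_dvd (by positivity) (hk ▸ pow_dvd_pow 7 (Nat.le_succ j)), hk, pow_succ,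
        Nat.mul_div_cancel_left _ (by positivity)]
    exact S.no_seven (a := a) ho (fun p hp => (h _ (pow_fix _ hra) p hp).symm) (pow_fix _ hra)
  have hinj : Function.Injective fun r : R' => (r : H) • a := by
    intro r s he
    have h1 := hno _ (R'.mul_mem (R'.inv_mem s.2) r.2) (by
      rw [mul_smul, show (r : H) • a = (s : H) • a from he, inv_smul_smul])
    exact Subtype.ext (inv_mul_eq_one.mp h1).symm
  have hle := Nat.card_le_card_of_injective _ hinj
  rw [S.card_eq] at hle
  obtain ⟨k, hk⟩ := hRp.exists_card_eq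
  have hk1 : k = 1 := by
    have h7R : 7 ∣ Nat.card R' := by
      rw [hR', Subgroup.card_map_of_injective Subtype.coe_injective]
      exact R.dvd_card_of_dvd_card ((show 7 ∣ 21 by norm_num).trans h21)
    rcases k with _ | _ | k
    · rw [hk] at h7R; norm_num at h7R
    · rfl
    · have : 7 ^ 2 ≤ 7 ^ (k + 1 + 1) := Nat.pow_le_pow_right (by norm_num) (by omega)
      omega
  subst hk1
  have hmod := Cfsg.Lib.Transfer.card_modEq_card_inf_centralizer R' (S.P a : Subgroup H) (S.P a).2 hnorm
  rw [hk, pow_one] at hmod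
  have h2 : 2 ≤ Nat.card ↥(R' ⊓ Subgroup.centralizer ((S.P a : Subgroup H) : Set H)) := by
    unfold Nat.ModEq at hmod
    omega
  haveI : Nontrivial ↥(R' ⊓ Subgroup.centralizer ((S.P a : Subgroup H) : Set H)) :=
    Finite.one_lt_card_iff_nontrivial.mp h2
  obtain ⟨⟨r, hrR, hrC⟩, hr1⟩ :=
    exists_ne (1 : ↥(R' ⊓ Subgroup.centralizer ((S.P a : Subgroup H) : Set H)))
  refine hr1 (Subtype.ext (hno r hrR ((S.fix_iff a _).mp fun p hp => ?_)))
  rw [smul_smul, Subgroup.mem_centralizer_iff.mp hrC p hp, mul_smul, S.fix_self hp]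

/-- A nontrivial 2-element centralising `P a` fixes only `a`. -/
theorem fix_eq_of_central (S : Setting H Ω) {a : Ω} {t : H} (h2 : ∃ k : ℕ, t ^ 2 ^ k = 1)
    (hc : ∀ p ∈ S.P a, p * t = t * p) (hta : t • a = a) (ht1 : t ≠ 1) :
    fixedBy Ω t = {a} := by
  haveI : Fact (Nat.Prime 2) := ⟨Nat.prime_two⟩
  haveI : Fintype Ω := Fintype.ofFinite Ω
  classical
  obtain ⟨k, hk⟩ := h2
  obtain ⟨j, -, hj⟩ := (Nat.dvd_prime_pow Nat.prime_two).mp (orderOf_dvd_of_pow_eq_one hk)
  obtain ⟨i, rfl⟩ : ∃ i, j = i + 1 := ⟨j - 1, by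
    rcases j with _ | j
    · rw [pow_zero, orderOf_eq_one_iff] at hj; exact absurd hj ht1
    · omega⟩
  set u := t ^ 2 ^ i with hu
  have huo : orderOf u = 2 := by
    rw [orderOf_pow_of_dvd (by positivity) (hj ▸ pow_dvd_pow 2 (Nat.le_succ i)), hj, pow_succ,
      Nat.mul_div_cancel_left _ (by positivity)]
  have hua : u • a = a := pow_fix _ hta
  have huc : ∀ p ∈ S.P a, p * u = u * p := fun p hp =>
    (Commute.pow_right (show Commute p t from hc p hp) _).eq
  set F := fixedBy Ω u with hF
  have h21 : F.ncard ≠ 21 := S.card_eq ▸ fixed_ne_univ (fun h => by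
    rw [h, orderOf_one] at huo; norm_num at huo)
  have hle : F.ncard ≤ 21 := S.card_eq ▸ Set.ncard_le_card _
  have h2' : F.ncard % 2 = 21 % 2 := S.fixed_modEq (q := 2) huo
  let T : SubMulAction (S.P a : Subgroup H) Ω :=
    { carrier := F
      smul_mem' := fun p b hb => by
        show u • (p : H) • b = (p : H) • b
        rw [smul_smul, ← huc p p.2, mul_smul]
        exact congrArg ((p : H) • ·) hb }
  have hmod := (S.P a).2.card_modEq_card_fixedPoints T
  have hfix : Nat.card (MulAction.fixedPoints (S.P a : Subgroup H) T) = 1 := by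
    rw [Nat.card_eq_one_iff_unique]
    refine ⟨⟨fun v w => Subtype.ext (Subtype.ext ?_)⟩,
      ⟨⟨⟨a, hua⟩, fun x => Subtype.ext (S.fix_self x.2)⟩⟩⟩
    rw [(S.fix_iff a v.1.1).mp fun x hx => congrArg Subtype.val (v.2 ⟨x, hx⟩),
      (S.fix_iff a w.1.1).mp fun x hx => congrArg Subtype.val (w.2 ⟨x, hx⟩)]
  rw [hfix, show Nat.card T = F.ncard from Nat.card_coe_set_eq F] at hmod
  have h11 : F.ncard ≠ 11 := by
    intro h11
    let σ : Equiv.Perm Ω := MulAction.toPerm u
    have hσ2 : σ ^ 2 = 1 := by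
      ext b
      rw [pow_two]
      show u • u • b = b
      rw [smul_smul, ← pow_two, ← huo, pow_orderOf_eq_one, one_smul]
    have hs := Equiv.Perm.sign_of_pow_two_eq_one hσ2
    have hcardF : Fintype.card (Function.fixedPoints σ) = 11 := by
      rw [← Nat.card_eq_fintype_card, ← h11, ← Nat.card_coe_set_eq]
      rfl
    rw [hcardF, ← Nat.card_eq_fintype_card, S.card_eq] at hs
    let f : H →* ℤˣ := Equiv.Perm.sign.comp (MulAction.toPermHom H Ω)
    have h1 := S.no_index_two f (fun g => by
      rcases Int.units_eq_one_or (f g) with e | e <;> simp [e]) u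
    rw [show f u = Equiv.Perm.sign σ from rfl, hs] at h1
    exact absurd h1 (by decide)
  have hF1 : F.ncard = 1 := by unfold Nat.ModEq at hmod; omega
  obtain ⟨c, hc1⟩ := Set.ncard_eq_one.mp hF1
  have hac : a = c := by
    have : a ∈ F := hua
    rwa [hc1] at this
  refine Set.eq_singleton_iff_unique_mem.mpr ⟨hta, fun b hb => ?_⟩
  have hbF : b ∈ F := pow_fix _ hb
  rw [hc1] at hbF
  exact hbF.trans hac.symm

theorem false_of_card_five (S : Setting H Ω) {a : Ω}
    (hP5 : Nat.card (S.P a : Subgroup H) = 5) : False := by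
  classical
  haveI : Fintype Ω := Fintype.ofFinite Ω
  haveI : IsPretransitive H Ω := S.trans
  set N := MulAction.stabilizer H a with hN
  have hNle : N ≤ Subgroup.normalizer ((S.P a : Subgroup H) : Set H) :=
    fun n hn => S.mem_stab_iff.mp hn
  haveI : IsCyclic (S.P a : Subgroup H) := isCyclic_of_prime_card hP5
  let e := (IsCyclic.mulAutMulEquiv (S.P a : Subgroup H)).trans
    (Units.mapEquiv ((ZMod.ringEquivCongr hP5).toMulEquiv))
  let β : N →* (ZMod 5)ˣ := e.toMonoidHom.comp
    ((S.P a : Subgroup H).normalizerMonoidHom.comp (Subgroup.inclusion hNle))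
  have hβ : ∀ n : N, β n = 1 ↔ ∀ p ∈ S.P a, p * (n : H) = n * p := by
    intro n
    have hk : ∀ m : ↥(Subgroup.normalizer ((S.P a : Subgroup H) : Set H)),
        (S.P a : Subgroup H).normalizerMonoidHom m = 1 ↔
          (m : H) ∈ Subgroup.centralizer ((S.P a : Subgroup H) : Set H) := fun m => by
      rw [← MonoidHom.mem_ker, Subgroup.normalizerMonoidHom_ker, Subgroup.mem_subgroupOf]
    refine (EmbeddingLike.map_eq_one_iff (f := e)).trans ((hk _).trans ?_)
    rw [Subgroup.mem_centralizer_iff]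
    rfl
  have unit4 := unit_pow_four
  have unit2 := unit_sq
  obtain ⟨⟨u, hu⟩, hgen⟩ := IsCyclic.exists_generator (α := β.range)
  -- the order of the generator
  have hu1 : u ≠ 1 := by
    rintro rfl
    obtain ⟨n, hn, p, hp, hnp⟩ := S.exists_not_central a
    obtain ⟨i, hi⟩ := Subgroup.mem_zpowers_iff.mp (hgen ⟨β ⟨n, hn⟩, ⟨_, rfl⟩⟩)
    have : β ⟨n, hn⟩ = 1 := by
      have := congrArg Subtype.val hi
      simpa using this.symm
    exact hnp ((hβ _).mp this p hp).symm
  set e0 := orderOf u with he0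
  have he4 : e0 ∣ 4 := orderOf_dvd_of_pow_eq_one (unit4 u)
  obtain ⟨m, he0m, hm⟩ : ∃ m, e0 = 2 * m ∧ (m = 1 ∨ m = 2) := by
    have h4 : e0 ≤ 4 := Nat.le_of_dvd (by norm_num) he4
    have h1 : e0 ≠ 1 := fun h => hu1 (orderOf_eq_one_iff.mp h)
    have h0 : 0 < e0 := orderOf_pos u
    interval_cases h : e0
    · exact absurd rfl h1
    · exact ⟨1, rfl, Or.inl rfl⟩
    · norm_num at he4
    · exact ⟨2, rfl, Or.inr rfl⟩
  have hpow : ∀ n : N, β n ^ e0 = 1 := by
    intro n
    obtain ⟨i, hi⟩ := Subgroup.mem_zpowers_iff.mp (hgen ⟨β n, ⟨_, rfl⟩⟩)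
    have := congrArg Subtype.val hi
    rw [SubgroupClass.coe_zpow] at this
    change u ^ i = β n at this
    rw [← this, ← zpow_natCast, ← zpow_mul, mul_comm, zpow_mul, zpow_natCast, he0,
      pow_orderOf_eq_one, one_zpow]
  -- a 2-element inducing a generator
  obtain ⟨n, rfl⟩ := hu
  obtain ⟨k, o, ho, hn⟩ := Nat.exists_eq_pow_mul_and_not_dvd (orderOf_pos n).ne' 2 (by norm_num)
  set x : N := n ^ o with hx
  have hx2 : x ^ 2 ^ k = 1 := by rw [hx, ← pow_mul, mul_comm, ← hn, pow_orderOf_eq_one]
  have hxo : orderOf (β x) = e0 := by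
    rw [hx, map_pow, Nat.Coprime.orderOf_pow]
    have hc2 : Nat.Coprime 2 o := (Nat.Prime.coprime_iff_not_dvd Nat.prime_two).mpr ho
    exact Nat.Coprime.coprime_dvd_left he4 (by simpa using hc2.pow_left 2)
  -- the character of order two
  let χ : N →* (ZMod 5)ˣ := (powMonoidHom m).comp β
  have hχ : ∀ y : N, χ y = β y ^ m := fun _ => rfl
  have hχ2 : ∀ y : N, χ y = 1 ∨ χ y = -1 := fun y =>
    unit2 _ (by rw [hχ, ← pow_mul, mul_comm, ← he0m, hpow])
  have hχx : χ x = -1 := by
    refine (hχ2 x).resolve_left fun h => ?_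
    rw [hχ, ← orderOf_dvd_iff_pow_eq_one, hxo, he0m] at h
    rcases hm with rfl | rfl <;> norm_num at h
  -- fixed points: on Ω and on the cosets of N
  have hcos : ∀ (g : H) (h : H), h • (g : H ⧸ N) = g ↔ h • g • a = g • a := by
    intro g h
    refine ⟨fun e' => ?_, fun e' => MulAction.injective_ofQuotientStabilizer H a ?_⟩
    · have := congrArg (MulAction.ofQuotientStabilizer H a) e'
      rw [MulAction.ofQuotientStabilizer_smul] at this
      exact this
    · rw [MulAction.ofQuotientStabilizer_smul]; exact e'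
  set F := fixedBy Ω (x : H) with hF
  have haF : a ∈ F := x.2
  -- the value of the character at the fixed cosets
  have hfixterm : ∀ (g : H) (hmem : g⁻¹ * (x : H) * g ∈ N), χ ⟨g⁻¹ * (x : H) * g, hmem⟩ = -1 := by
    intro g hmem
    set y : N := ⟨g⁻¹ * (x : H) * g, hmem⟩ with hy
    have hy1 : g • a ∈ F := by
      have : (g⁻¹ * (x : H) * g) • a = a := hmem
      rw [mul_smul, mul_smul, inv_smul_eq_iff] at this
      exact this
    have hsingle : F = {a} → χ y = -1 := by
      intro hFa
      rw [hFa] at hy1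
      have hg : g ∈ N := hy1
      have : y = (⟨g, hg⟩ : N)⁻¹ * x * ⟨g, hg⟩ := rfl
      rw [this, map_mul, map_mul, map_inv, mul_comm, mul_inv_cancel_left, hχx]
    by_cases hxe : x ^ e0 = 1
    · refine (hχ2 y).resolve_left fun hy0 => ?_
      have hyC : ∀ p ∈ S.P a, p * ((y ^ m : N) : H) = (y ^ m : N) * p := by
        rw [← hβ, map_pow, ← hχ]; exact hy0
      have hym : (y : H) ^ m = g⁻¹ * (x : H) ^ m * g := by
        have := map_pow (MulAut.conj g⁻¹) (x : H) m
        simp only [MulAut.conj_apply, inv_inv] at this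
        exact this.symm
      have hne : (y : H) ^ m ≠ 1 := by
        rw [hym]
        intro h1
        have h1' : x ^ m = 1 := Subtype.ext (show (x : H) ^ m = 1 by
          calc (x : H) ^ m = g * (g⁻¹ * (x : H) ^ m * g) * g⁻¹ := by group
            _ = 1 := by rw [h1]; group)
        have : χ x = 1 := by rw [hχ, ← map_pow, h1', map_one]
        rw [hχx] at this
        exact absurd this unit_neg_one_ne
      have hF1 : fixedBy Ω ((y : H) ^ m) = {a} := by
        refine S.fix_eq_of_central ⟨1, ?_⟩ (fun p hp => ?_) (y ^ m).2 hne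
        · rw [pow_one, ← pow_mul, mul_comm, ← he0m]
          have h' := map_pow (MulAut.conj g⁻¹) (x : H) e0
          simp only [MulAut.conj_apply, inv_inv] at h'
          show (g⁻¹ * (x : H) * g) ^ e0 = 1
          rw [← h', ← Subgroup.coe_pow, hxe]; simp
        · exact hyC p hp
      have hall : ∀ b ∈ F, b = g • a := by
        intro b hb
        have : g⁻¹ • b ∈ fixedBy Ω ((y : H) ^ m) := by
          show (y : H) ^ m • g⁻¹ • b = g⁻¹ • b
          refine pow_fix m ?_
          show (g⁻¹ * (x : H) * g) • g⁻¹ • b = g⁻¹ • b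
          rw [smul_smul, mul_inv_cancel_right, mul_smul]
          exact congrArg (g⁻¹ • ·) hb
        rw [hF1, Set.mem_singleton_iff, inv_smul_eq_iff] at this
        exact this
      have hFa : F = {a} := Set.eq_singleton_iff_unique_mem.mpr
        ⟨haF, fun b hb => (hall b hb).trans (hall a haF).symm⟩
      rw [hsingle hFa] at hy0
      exact absurd hy0 unit_neg_one_ne
    · refine hsingle (Set.eq_singleton_iff_unique_mem.mpr ⟨haF, fun b hb => ?_⟩)
      have hsing := S.fix_eq_of_central (t := ((x ^ e0 : N) : H))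
        ⟨k, by rw [← Subgroup.coe_pow, ← pow_mul, mul_comm, pow_mul, hx2, one_pow, Subgroup.coe_one]⟩
        ((hβ _).mp (by rw [map_pow, hpow])) (x ^ e0).2
        (fun h => hxe (Subtype.ext h))
      have : b ∈ fixedBy Ω ((x ^ e0 : N) : H) := by
        show ((x ^ e0 : N) : H) • b = b
        rw [Subgroup.coe_pow]; exact pow_fix e0 hb
      rwa [hsing] at this
  -- the value of the character on longer orbits
  have hlong : ∀ (g : H) (l : ℕ) (hmem : g⁻¹ * (x : H) ^ l * g ∈ N),
      (x : H) • (g : H ⧸ N) ≠ g → 2 ∣ l → χ ⟨g⁻¹ * (x : H) ^ l * g, hmem⟩ = 1 := by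
    intro g l hmem hmove hl
    obtain ⟨j, rfl⟩ := hl
    set y : N := ⟨g⁻¹ * (x : H) ^ (2 * j) * g, hmem⟩ with hy
    rw [hχ, ← map_pow, hβ]
    have hym : ((y ^ m : N) : H) = g⁻¹ * (x : H) ^ (e0 * j) * g := by
      have := map_pow (MulAut.conj g⁻¹) ((x : H) ^ (2 * j)) m
      simp only [MulAut.conj_apply, inv_inv] at this
      rw [Subgroup.coe_pow, hy, ← this, ← pow_mul, he0m, mul_right_comm]
    intro p hp
    suffices h1 : (x : H) ^ (e0 * j) = 1 by rw [hym, h1]; simp
    by_contra h1
    have hxe : x ^ e0 ≠ 1 := fun h => h1 (by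
      rw [pow_mul, ← Subgroup.coe_pow, h, Subgroup.coe_one, one_pow])
    have hsing := S.fix_eq_of_central (t := ((x ^ (e0 * j) : N) : H))
      ⟨k, by rw [← Subgroup.coe_pow, ← pow_mul, mul_comm, pow_mul, hx2, one_pow, Subgroup.coe_one]⟩
      ((hβ _).mp (by rw [map_pow, pow_mul, hpow, one_pow])) (x ^ (e0 * j)).2
      (by rw [Subgroup.coe_pow]; exact h1)
    have hga : g • a ∈ fixedBy Ω ((x ^ (e0 * j) : N) : H) := by
      show ((x ^ (e0 * j) : N) : H) • g • a = g • a
      have hy' : (x : H) ^ (2 * j) • g • a = g • a := by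
        have : (g⁻¹ * (x : H) ^ (2 * j) * g) • a = a := hmem
        rw [mul_smul, mul_smul, inv_smul_eq_iff] at this
        exact this
      rw [Subgroup.coe_pow, he0m, show 2 * m * j = 2 * j * m by ring, pow_mul]
      exact pow_fix m hy'
    rw [hsing, Set.mem_singleton_iff] at hga
    exact hmove ((hcos g x).mpr (by rw [hga]; exact x.2))
  -- the transfer
  haveI : Fintype (Quotient (orbitRel (Subgroup.zpowers (x : H)) (H ⧸ N))) := Fintype.ofFinite _
  have htau : MonoidHom.transfer χ (x : H) = -1 := by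
    rw [MonoidHom.transfer_eq_prod_quotient_orbitRel_zpowers_quot χ (x : H)]
    set per : Quotient (orbitRel (Subgroup.zpowers (x : H)) (H ⧸ N)) → ℕ :=
      fun q => Function.minimalPeriod ((x : H) • ·) q.out with hper
    rw [Finset.prod_congr rfl (g := fun q => if per q = 1 then (-1 : (ZMod 5)ˣ) else 1)
      (fun q _ => ?_)]
    · rw [Finset.prod_ite, Finset.prod_const, Finset.prod_const_one, mul_one]
      have hcount : (Finset.univ.filter fun q => per q = 1).card = F.ncard := by
        rw [Set.ncard_eq_toFinset_card' F]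
        refine Finset.card_bij (fun q _ => q.out.out • a) (fun q hq => ?_) (fun q hq q' hq' h => ?_)
          (fun b hb => ?_)
        · have h1 : (x : H) • q.out = q.out :=
            Function.minimalPeriod_eq_one_iff_isFixedPt.mp (Finset.mem_filter.mp hq).2
          rw [Set.mem_toFinset]
          exact (hcos q.out.out x).mp (by rw [QuotientGroup.out_eq']; exact h1)
        · have := MulAction.injective_ofQuotientStabilizer H a
            (a₁ := (q.out.out : H ⧸ N)) (a₂ := (q'.out.out : H ⧸ N)) h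
          rw [QuotientGroup.out_eq', QuotientGroup.out_eq'] at this
          rw [← Quotient.out_eq q, this, Quotient.out_eq]
        · rw [Set.mem_toFinset] at hb
          obtain ⟨g, rfl⟩ := exists_smul_eq H a b
          set q : Quotient (orbitRel (Subgroup.zpowers (x : H)) (H ⧸ N)) :=
            Quotient.mk'' (g : H ⧸ N) with hq
          have hgfix : (x : H) • (g : H ⧸ N) = g := (hcos g x).mpr hb
          have hqout : q.out = (g : H ⧸ N) := by
            obtain ⟨⟨h, hh⟩, hh'⟩ := MulAction.orbitRel_apply.mp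
              (Quotient.mk_out (s := orbitRel (Subgroup.zpowers (x : H)) (H ⧸ N)) (g : H ⧸ N))
            rw [← hh']
            exact (Subgroup.zpowers_le.mpr hgfix : Subgroup.zpowers (x : H) ≤
              MulAction.stabilizer H (g : H ⧸ N)) hh
          refine ⟨q, Finset.mem_filter.mpr ⟨Finset.mem_univ _, ?_⟩, ?_⟩
          · rw [hper]; simp only [hqout]
            exact Function.minimalPeriod_eq_one_iff_isFixedPt.mpr hgfix
          · show MulAction.ofQuotientStabilizer H a (q.out.out : H ⧸ N) = _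
            rw [QuotientGroup.out_eq', hqout]; rfl
      have hodd : Odd F.ncard := by
        haveI : Fact (Nat.Prime 2) := ⟨Nat.prime_two⟩
        have hp2 : IsPGroup 2 (Subgroup.zpowers (x : H)) := by
          obtain ⟨j, -, hj⟩ := (Nat.dvd_prime_pow Nat.prime_two).mp
            (orderOf_dvd_of_pow_eq_one (show (x : H) ^ 2 ^ k = 1 by
              rw [← Subgroup.coe_pow, hx2, Subgroup.coe_one]))
          exact IsPGroup.of_card (n := j) (by rw [Nat.card_zpowers, hj])
        have h := hp2.card_modEq_card_fixedPoints Ω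
        have e' : MulAction.fixedPoints (Subgroup.zpowers (x : H)) Ω = F := by
          ext b
          refine ⟨fun hb => hb ⟨x, Subgroup.mem_zpowers _⟩, fun hb => ?_⟩
          rintro ⟨g, hg⟩
          exact (Subgroup.zpowers_le.mpr hb : Subgroup.zpowers (x : H) ≤ MulAction.stabilizer H b) hg
        rw [S.card_eq, e', Nat.card_coe_set_eq] at h
        rw [Nat.odd_iff]; exact h.symm
      rw [hcount, hodd.neg_one_pow]
    · have hfix : (x : H) • q.out = q.out ↔ per q = 1 :=
        Function.minimalPeriod_eq_one_iff_isFixedPt.symm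
      split_ifs with h
      · have hm' := QuotientGroup.out_conj_pow_minimalPeriod_mem N (x : H) q.out
        change per q = 1 at h
        refine (congrArg χ (Subtype.ext ?_)).trans (hfixterm q.out.out ?_)
        · show q.out.out⁻¹ * (x : H) ^ per q * q.out.out = _
          rw [h, pow_one]
        · show q.out.out⁻¹ * (x : H) * q.out.out ∈ N
          have := hm'
          rwa [show Function.minimalPeriod ((x : H) • ·) q.out = 1 from h, pow_one] at this
      · refine hlong _ _ _ (fun he => h (hfix.mp ?_)) ?_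
        · rw [QuotientGroup.out_eq'] at he; exact he
        · have hdvd : per q ∣ 2 ^ k := by
            refine Function.IsPeriodicPt.minimalPeriod_dvd ?_
            show ((x : H) • ·)^[2 ^ k] q.out = q.out
            rw [smul_iterate]
            show (x : H) ^ 2 ^ k • q.out = q.out
            rw [← Subgroup.coe_pow, hx2, Subgroup.coe_one, one_smul]
          obtain ⟨i, -, hi⟩ := (Nat.dvd_prime_pow Nat.prime_two).mp hdvd
          show 2 ∣ per q
          rw [hi]
          exact dvd_pow_self 2 (fun h0 => h (by rw [hi, h0, pow_zero]))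
  have h1 := S.no_index_two (MonoidHom.transfer χ) (fun g => ?_) (x : H)
  · rw [htau] at h1; exact absurd h1 unit_neg_one_ne
  · haveI : Fintype (Quotient (orbitRel (Subgroup.zpowers g) (H ⧸ N))) := Fintype.ofFinite _
    rw [MonoidHom.transfer_eq_prod_quotient_orbitRel_zpowers_quot χ g,
      ← Finset.prod_pow]
    refine Finset.prod_eq_one fun q _ => ?_
    rcases hχ2 ⟨q.out.out⁻¹ * g ^ Function.minimalPeriod (g • ·) q.out * q.out.out,
      QuotientGroup.out_conj_pow_minimalPeriod_mem N g q.out⟩ with h | h <;>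
      rw [h] <;> simp

end Setting

theorem no_setting {H Ω : Type*} [Group H] [Finite H] [MulAction H Ω] [Finite Ω] [FaithfulSMul H Ω]
    (S : Setting H Ω) : False := by
  haveI : Fact (Nat.Prime 5) := ⟨by norm_num⟩
  have ha : Nonempty Ω := (Nat.card_ne_zero.mp (by rw [S.card_eq]; norm_num)).1
  obtain ⟨a⟩ := ha
  exact S.false_of_card_five (S.card_P a)

end Cfsg.Lib.N5
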