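import Mathlib
import Cfsg.Agent.Lib.Transfer.Action

set_option autoImplicit false

/-! No finite group has exactly 21 Sylow 5-subgroups: the permutation setting. -/

set_option linter.unusedSectionVars false
set_option linter.unusedVariables false
set_option linter.style.haveILetI false

namespace Cfsg.Lib.N5

open MulAction Subgroup
open scoped Pointwise

/-- A faithful action on 21 points whose point `a` is the only fixed point of a Sylow 5-subgroup
`P a`, these being equivariant, with the group generated by 5-elements. -/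
structure Setting (H Ω : Type*) [Group H] [MulAction H Ω] where
  P : Ω → Sylow 5 H
  card_eq : Nat.card Ω = 21
  conj : ∀ (h : H) (a : Ω), P (h • a) = h • P a
  fix_iff : ∀ a b : Ω, (∀ x ∈ P a, x • b = b) ↔ b = a
  gen : Subgroup.closure {x : H | ∃ k : ℕ, x ^ (5 ^ k) = 1} = ⊤

variable {H Ω : Type*} [Group H] [Finite H] [MulAction H Ω] [Finite Ω] [FaithfulSMul H Ω]
  (S : Setting H Ω) [Fact (Nat.Prime 5)]

namespace Setting

theorem fix_self {a : Ω} {x : H} (hx : x ∈ S.P a) : x • a = a :=
  (S.fix_iff a a).mpr rfl x hx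

theorem inj {a b : Ω} (h : S.P a = S.P b) : a = b :=
  (S.fix_iff b a).mp fun x hx => S.fix_self (h ▸ hx)

theorem mem_stab_iff {a : Ω} {h : H} :
    h • a = a ↔ h ∈ Subgroup.normalizer (S.P a : Set H) := by
  rw [← Sylow.smul_eq_iff_mem_normalizer, ← S.conj]
  exact ⟨fun e => by rw [e], fun e => S.inj e⟩

theorem trans (S : Setting H Ω) : IsPretransitive H Ω := ⟨fun a b => by
  obtain ⟨h, hh⟩ := exists_smul_eq H (S.P a) (S.P b)
  exact ⟨h, S.inj (by rw [S.conj, hh])⟩⟩

theorem mem_of_fix {a : Ω} {x : H} (hx : ∃ k : ℕ, x ^ (5 ^ k) = 1) (h : x • a = a) :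
    x ∈ S.P a := by
  obtain ⟨k, hk⟩ := hx
  have hP : IsPGroup 5 (Subgroup.zpowers x) := by
    obtain ⟨j, -, hj⟩ := (Nat.dvd_prime_pow (Fact.out : Nat.Prime 5)).mp (orderOf_dvd_of_pow_eq_one hk)
    exact IsPGroup.of_card (n := j) (by rw [Nat.card_zpowers, hj])
  have hN := hP.inf_normalizer_sylow (S.P a)
  have : x ∈ Subgroup.zpowers x ⊓ Subgroup.normalizer (S.P a : Set H) :=
    ⟨Subgroup.mem_zpowers x, S.mem_stab_iff.mp h⟩
  rw [hN] at this
  exact this.2

theorem pelem {a : Ω} {x : H} (hx : x ∈ S.P a) : ∃ k : ℕ, x ^ (5 ^ k) = 1 := by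
  obtain ⟨k, hk⟩ := (S.P a).2 ⟨x, hx⟩
  exact ⟨k, by simpa using congrArg Subtype.val hk⟩

omit [FaithfulSMul H Ω] in
theorem pow_fix {b : Ω} {x : H} (n : ℕ) (h : x • b = b) : x ^ n • b = b := by
  induction n with
  | zero => simp
  | succ n ih => rw [pow_succ, mul_smul, h, ih]

theorem no_index_two (S : Setting H Ω) {A : Type*} [CommGroup A] (f : H →* A) (hf : ∀ h, f h ^ 2 = 1) (h : H) :
    f h = 1 := by
  suffices ⊤ ≤ f.ker from this (Subgroup.mem_top h)
  rw [← S.gen, Subgroup.closure_le]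
  rintro x ⟨k, hk⟩
  have h5 : f x ^ (5 ^ k) = 1 := by rw [← map_pow, hk, map_one]
  rw [SetLike.mem_coe, MonoidHom.mem_ker, ← orderOf_eq_one_iff]
  exact Nat.eq_one_of_dvd_coprimes (Nat.Coprime.pow_left k (by norm_num) : (5 ^ k).Coprime 2)
    (orderOf_dvd_of_pow_eq_one h5) (orderOf_dvd_of_pow_eq_one (hf x))

/-- Orbits of `P a` away from `a` have exactly five points. -/
theorem orbit_card {a b : Ω} (hb : b ≠ a) :
    Nat.card (MulAction.orbit (S.P a : Subgroup H) b) = 5 := by
  haveI : Fintype Ω := Fintype.ofFinite Ω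
  obtain ⟨k, hk⟩ := (S.P a).2.card_orbit b
  have hlt : Nat.card (MulAction.orbit (S.P a : Subgroup H) b) < 21 := by
    rw [← S.card_eq]
    refine Finite.card_subtype_lt (x := a) ?_
    rintro ⟨g, hg⟩
    have hg' : (g : H) • b = a := hg
    have := S.fix_self (inv_mem g.2)
    exact hb (((inv_smul_smul (g : H) b).symm.trans (congrArg ((g : H)⁻¹ • ·) hg')).trans this)
  have h1 : k ≠ 0 := by
    rintro rfl
    rw [pow_zero] at hk
    refine hb ((S.fix_iff a b).mp fun x hx => ?_)
    haveI : Subsingleton (MulAction.orbit (S.P a : Subgroup H) b) :=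
      (Nat.card_eq_one_iff_unique.mp hk).1
    exact congrArg Subtype.val (Subsingleton.elim
      (⟨x • b, ⟨⟨x, hx⟩, rfl⟩⟩ : MulAction.orbit (S.P a : Subgroup H) b)
      ⟨b, MulAction.mem_orbit_self b⟩)
  have h2 : k < 2 := by
    by_contra h
    have : 5 ^ 2 ≤ 5 ^ k := Nat.pow_le_pow_right (by norm_num) (by omega)
    omega
  rw [hk, show k = 1 by omega, pow_one]

/-- The image of `P a` on each of its orbits is cyclic, so `P a` is abelian. -/
theorem comm {a : Ω} {x y : H} (hx : x ∈ S.P a) (hy : y ∈ S.P a) : x * y = y * x := by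
  have key : ∀ b : Ω, (x * y) • b = (y * x) • b := by
    intro b
    by_cases hb : b = a
    · subst hb
      rw [mul_smul, mul_smul, S.fix_self hy, S.fix_self hx, S.fix_self hy]
    · have h5 := S.orbit_card hb
      let O := MulAction.orbit (S.P a : Subgroup H) b
      let f : (S.P a : Subgroup H) →* Equiv.Perm O := MulAction.toPermHom _ _
      obtain ⟨k, hk⟩ := ((S.P a).2.of_surjective f.rangeRestrict f.rangeRestrict_surjective).exists_card_eq
      have hdvd : Nat.card f.range ∣ 120 := by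
        refine (Subgroup.card_subgroup_dvd_card f.range).trans ?_
        rw [Nat.card_perm, h5]
        rfl
      have hk1 : k ≤ 1 := by
        by_contra h
        have h25 : 5 ^ 2 ∣ 120 := (pow_dvd_pow 5 (by omega : 2 ≤ k)).trans (hk ▸ hdvd)
        norm_num at h25
      haveI : IsCyclic f.range := by
        interval_cases k
        · haveI : Subsingleton f.range := (Nat.card_eq_one_iff_unique.mp (by simpa using hk)).1
          infer_instance
        · exact isCyclic_of_prime_card (p := 5) (by simpa using hk)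
      obtain ⟨g, hg⟩ := IsCyclic.exists_generator (α := f.range)
      obtain ⟨i, hi⟩ := Subgroup.mem_zpowers_iff.mp (hg (f.rangeRestrict ⟨x, hx⟩))
      obtain ⟨j, hj⟩ := Subgroup.mem_zpowers_iff.mp (hg (f.rangeRestrict ⟨y, hy⟩))
      have he : f (⟨x, hx⟩ * ⟨y, hy⟩) = f (⟨y, hy⟩ * ⟨x, hx⟩) := by
        rw [map_mul, map_mul, ← f.coe_rangeRestrict ⟨x, hx⟩, ← f.coe_rangeRestrict ⟨y, hy⟩,
          ← Subgroup.coe_mul, ← Subgroup.coe_mul, ← hi, ← hj, ← zpow_add, ← zpow_add, add_comm]
      exact congrArg Subtype.val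
        (congrArg (fun (σ : Equiv.Perm O) => σ ⟨b, MulAction.mem_orbit_self b⟩) he)
  exact eq_of_smul_eq_smul key

theorem prim (S : Setting H Ω) : IsPreprimitive H Ω := by
  haveI := S.trans
  haveI : Nonempty Ω := (Nat.card_ne_zero.mp (by rw [S.card_eq]; norm_num)).1
  obtain ⟨a⟩ := ‹Nonempty Ω›
  refine IsPreprimitive.of_isTrivialBlock_base a fun {B} haB hB => ?_
  have hdvd := hB.ncard_dvd_card ⟨a, haB⟩
  rw [S.card_eq] at hdvd
  have hinv : ∀ x : (S.P a : Subgroup H), x • B = B := by
    intro x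
    refine (hB.smul_eq_smul_of_nonempty (g₁ := (x : H)) (g₂ := 1) ⟨a, ?_, ?_⟩).trans (one_smul H B)
    · exact ⟨a, haB, S.fix_self x.2⟩
    · simpa using haB
  let T : SubMulAction (S.P a : Subgroup H) Ω :=
    { carrier := B
      smul_mem' := fun x b hb => hinv x ▸ Set.smul_mem_smul_set hb }
  have hmod := (S.P a).2.card_modEq_card_fixedPoints T
  have hfix : Nat.card (MulAction.fixedPoints (S.P a : Subgroup H) T) = 1 := by
    rw [Nat.card_eq_one_iff_unique]
    refine ⟨⟨fun u v => Subtype.ext (Subtype.ext ?_)⟩, ⟨⟨⟨a, haB⟩, fun x => Subtype.ext (S.fix_self x.2)⟩⟩⟩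
    rw [(S.fix_iff a u.1.1).mp fun x hx => congrArg Subtype.val (u.2 ⟨x, hx⟩),
      (S.fix_iff a v.1.1).mp fun x hx => congrArg Subtype.val (v.2 ⟨x, hx⟩)]
  rw [hfix, show Nat.card T = B.ncard from Nat.card_coe_set_eq B] at hmod
  have hle : B.ncard ≤ 21 := Nat.le_of_dvd (by norm_num) hdvd
  have : B.ncard = 1 ∨ B.ncard = 21 := by
    unfold Nat.ModEq at hmod
    interval_cases h : B.ncard <;> omega
  rcases this with h | h
  · exact Or.inl (Set.ncard_le_one_iff_subsingleton.mp h.le)
  · exact Or.inr (Set.eq_of_subset_of_ncard_le (Set.subset_univ _)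
      (by rw [Set.ncard_univ, S.card_eq, h]))

/-- Jordan: no element of prime order `q` moves exactly `q` points. -/
theorem no_cycle (S : Setting H Ω) {q : ℕ} (hq : q.Prime) (hq18 : q ≤ 18) {y : H}
    (hy : orderOf y = q) (hfix : (fixedBy Ω y).ncard + q = 21) : False := by
  haveI := S.trans
  haveI : Fact q.Prime := ⟨hq⟩
  set s : Set Ω := fixedBy Ω y with hs
  have hsc : sᶜ.ncard = q := by
    have := Set.ncard_add_ncard_compl s
    rw [S.card_eq] at this; omega
  have hymem : y ∈ fixingSubgroup H s := by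
    rw [mem_fixingSubgroup_iff]; exact fun b hb => hb
  have hcard : Nat.card (SubMulAction.ofFixingSubgroup H s) = q := by
    rw [← hsc, ← Nat.card_coe_set_eq]; rfl
  haveI : IsPretransitive (fixingSubgroup H s) (SubMulAction.ofFixingSubgroup H s) := by
    constructor
    intro u v
    let y' : fixingSubgroup H s := ⟨y, hymem⟩
    have hP : IsPGroup q (Subgroup.zpowers y') := IsPGroup.of_card (n := 1) (by
      rw [Nat.card_zpowers, pow_one, ← orderOf_injective (fixingSubgroup H s).subtype Subtype.coe_injective y']; exact hy)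
    obtain ⟨k, hk⟩ := hP.card_orbit u
    have hk0 : k ≠ 0 := by
      rintro rfl
      rw [pow_zero] at hk
      haveI := (Nat.card_eq_one_iff_unique.mp hk).1
      apply u.2
      show y • (u : Ω) = u
      have := Subsingleton.elim
        (⟨(⟨y', Subgroup.mem_zpowers y'⟩ : Subgroup.zpowers y') • u, MulAction.mem_orbit _ _⟩ :
          MulAction.orbit (Subgroup.zpowers y') u) ⟨u, MulAction.mem_orbit_self u⟩
      exact congrArg Subtype.val (congrArg Subtype.val this)
    have huniv : MulAction.orbit (Subgroup.zpowers y') u = Set.univ := by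
      refine Set.eq_of_subset_of_ncard_le (Set.subset_univ _) ?_
      rw [Set.ncard_univ, hcard, ← Nat.card_coe_set_eq, hk]
      exact Nat.le_self_pow hk0 q
    obtain ⟨g, hg⟩ : v ∈ MulAction.orbit (Subgroup.zpowers y') u := huniv ▸ Set.mem_univ v
    exact ⟨g, hg⟩
  have hprim : IsPreprimitive (fixingSubgroup H s) (SubMulAction.ofFixingSubgroup H s) :=
    IsPreprimitive.of_prime_card (hcard ▸ hq)
  have hm := S.prim.isMultiplyPreprimitive (s := s) (n := 20 - q) (by omega)
    (by have := hq.two_le; rw [S.card_eq]; omega) hprim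
  haveI := hm.isMultiplyPretransitive
  have h3 : IsMultiplyPretransitive H Ω 3 :=
    isMultiplyPretransitive_of_le' (by omega : 3 ≤ 20 - q + 2) (by
      rw [ENat.card_eq_coe_natCard, S.card_eq]; exact (Nat.cast_le (α := ℕ∞)).mpr (show (20 - q + 2 : ℕ) ≤ 21 by have := hq.two_le; omega))
  haveI : Nonempty Ω := (Nat.card_ne_zero.mp (by rw [S.card_eq]; norm_num)).1
  obtain ⟨a⟩ := ‹Nonempty Ω›
  obtain ⟨b, hb⟩ : ∃ b, b ≠ a := by
    by_contra h; push Not at h
    haveI : Subsingleton Ω := ⟨fun u v => (h u).trans (h v).symm⟩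
    have := Finite.card_le_one_iff_subsingleton.mpr ‹Subsingleton Ω›
    rw [S.card_eq] at this; omega
  have hO := S.orbit_card hb
  obtain ⟨b', hb'O, hb'⟩ : ∃ b' ∈ MulAction.orbit (S.P a : Subgroup H) b, b' ≠ b := by
    by_contra h; push Not at h
    haveI : Subsingleton (MulAction.orbit (S.P a : Subgroup H) b) :=
      ⟨fun u v => Subtype.ext ((h u u.2).trans (h v v.2).symm)⟩
    rw [Nat.card_of_subsingleton ⟨b, MulAction.mem_orbit_self b⟩] at hO; omega
  have hb'a : b' ≠ a := by
    rintro rfl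
    obtain ⟨p, hp⟩ := hb'O
    exact hb (((inv_smul_smul (p : H) b).symm.trans
      (congrArg ((p : H)⁻¹ • ·) (show (p : H) • b = b' from hp))).trans
      (S.fix_self (inv_mem p.2)))
  obtain ⟨c, hca, hcO⟩ : ∃ c, c ≠ a ∧ c ∉ MulAction.orbit (S.P a : Subgroup H) b := by
    by_contra h; push Not at h
    have hsub : (Set.univ : Set Ω) ⊆ insert a (MulAction.orbit (S.P a : Subgroup H) b) := by
      intro u _
      by_cases hu : u = a
      · exact Or.inl hu
      · exact Or.inr (h u hu)
    have := (Set.ncard_le_ncard hsub).trans (Set.ncard_insert_le _ _)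
    rw [Set.ncard_univ, S.card_eq, ← Nat.card_coe_set_eq, hO] at this; omega
  have hcb : b ≠ c := fun e => hcO (e ▸ MulAction.mem_orbit_self b)
  have inj1 : Function.Injective ![a, b, b'] := by
    intro i j; fin_cases i <;> fin_cases j <;> simp [hb, hb.symm, hb', hb'.symm, hb'a, hb'a.symm]
  have inj2 : Function.Injective ![a, b, c] := by
    intro i j; fin_cases i <;> fin_cases j <;> simp [hb, hb.symm, hcb, hcb.symm, hca, hca.symm]
  obtain ⟨g, hg⟩ := h3.exists_smul_eq ⟨_, inj1⟩ ⟨_, inj2⟩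
  have g0 : g • a = a := congrFun (congrArg DFunLike.coe hg) 0
  have g1 : g • b = b := congrFun (congrArg DFunLike.coe hg) 1
  have g2 : g • b' = c := congrFun (congrArg DFunLike.coe hg) 2
  obtain ⟨p, hp⟩ := hb'O
  have hp' : (p : H) • b = b' := hp
  have hgp : g * p * g⁻¹ ∈ (S.P a : Subgroup H) :=
    (Subgroup.mem_normalizer_iff.mp (S.mem_stab_iff.mp g0) p).mp p.2
  refine hcO ⟨⟨_, hgp⟩, ?_⟩
  show (g * p * g⁻¹) • b = c
  rw [← g2, ← hp', mul_smul, mul_smul]
  congr 2
  rw [inv_smul_eq_iff, g1]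

end Setting

end Cfsg.Lib.N5
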